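import Cfsg.Agent.Schur.SylowSummand
import Cfsg.Agent.Schur.Stemify

/-!
# Central extensions of a group induced from an extension of a subgroup

The commutator of two monomial lifts of commuting elements of the subgroup vanishes on every point on
which the subgroup acts freely, when the lifts are built from an equivariant choice of representatives.
-/

namespace CfsgLib.SchurSylow

open CfsgLib.Schur
open scoped commutatorElement

universe u

variable {G : Type u} [Group G] {P : Subgroup G}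

/-- The subgroup moves every point of the orbit of this coset freely. -/
def IsFree (P : Subgroup G) (i : G ⧸ P) : Prop := ∀ g : P, (g : G) • i = i → g = 1

theorem IsFree.smul {i : G ⧸ P} (hi : IsFree P i) (g : P) : IsFree P ((g : G) • i) := by
  intro u hu
  have h1 : g⁻¹ * u * g = 1 := hi _ (by
    rw [Subgroup.coe_mul, Subgroup.coe_mul, mul_smul, mul_smul, hu, Subgroup.coe_inv, inv_smul_smul])
  calc u = g * (g⁻¹ * u * g) * g⁻¹ := by group
    _ = 1 := by rw [h1]; group

/-- On free points the monomial cocycle is a coboundary. -/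
theorem exists_coboundary (P : Subgroup G) :
    ∃ k : G ⧸ P → P, ∀ (g : P) i, IsFree P i → cocy P (g : G) i = (k ((g : G) • i))⁻¹ * k i := by
  classical
  let rep : G ⧸ P → G ⧸ P := fun i => (Quotient.mk (MulAction.orbitRel P (G ⧸ P)) i).out
  have horb : ∀ i, ∃ g : P, (g : G) • rep i = i := fun i => by
    have h1 : MulAction.orbitRel P (G ⧸ P) (rep i) i := Quotient.mk_out i
    obtain ⟨g, hg⟩ := h1
    exact ⟨g⁻¹, by rw [Subgroup.coe_inv, inv_smul_eq_iff]; exact hg.symm⟩
  choose γ hγ using horb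
  let kf : G ⧸ P → P := fun i => ⟨((γ i : G) * cosRep P (rep i))⁻¹ * cosRep P i, by
    rw [← QuotientGroup.eq, ← smul_eq_mul, ← MulAction.Quotient.smul_coe, cosRep_mk, cosRep_mk, hγ]⟩
  refine ⟨kf, fun g i hi => ?_⟩
  have hrep : rep ((g : G) • i) = rep i := by
    refine congrArg Quotient.out (Quotient.sound ?_)
    exact ⟨g, rfl⟩
  have hfree : IsFree P (rep i) := by
    have := hi.smul (γ i)⁻¹
    rwa [Subgroup.coe_inv, inv_smul_eq_iff.2 (hγ i).symm] at this
  have hγg : γ ((g : G) • i) = g * γ i := by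
    refine inv_mul_eq_one.1 (hfree _ ?_)
    rw [Subgroup.coe_mul, Subgroup.coe_inv, mul_smul, inv_smul_eq_iff, Subgroup.coe_mul, mul_smul, hγ i,
      ← hrep, hγ]
  refine Subtype.ext ?_
  change (cosRep P ((g : G) • i))⁻¹ * ((g : G) * cosRep P i) =
    (((γ ((g : G) • i) : G) * cosRep P (rep ((g : G) • i)))⁻¹ * cosRep P ((g : G) • i))⁻¹ *
      (((γ i : G) * cosRep P (rep i))⁻¹ * cosRep P i)
  rw [hrep, hγg, Subgroup.coe_mul]
  group

variable {E : Type u} [Group E] {C : Type u} [CommGroup C]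

/-- Monomial lifts of two commuting elements of the subgroup. -/
theorem exists_pair (ζ : E →* P) (s : P → E) (hs : ∀ x, ζ (s x) = x) (κ : C →* E)
    (hκ : ∀ c, ζ (κ c) = 1) (hκi : Function.Injective κ) (hC : ∀ x : E, ζ x = 1 → ∃ c, κ c = x)
    (g g' : P) (hgg : g * g' = g' * g) :
    ∃ (A B : IndGrp ζ) (T : G ⧸ P → C), A * B = B * A * indKer ζ κ hκ T ∧
      (∀ i, IsFree P i → T i = 1) ∧
      ∀ i, ¬ IsFree P i → (g : G) • i = i → (g' : G) • i = i →
        s (cocy P (g : G) i) * s (cocy P (g' : G) i) =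
          s (cocy P (g' : G) i) * s (cocy P (g : G) i) * κ (T i) := by
  classical
  obtain ⟨k, hk⟩ := exists_coboundary P
  let f : P → G ⧸ P → E := fun u i =>
    if IsFree P i then (s (k ((u : G) • i)))⁻¹ * s (k i) else s (cocy P (u : G) i)
  have hlift : ∀ u i, ζ (f u i) = cocy P (u : G) i := fun u i => by
    by_cases hi : IsFree P i
    · simp only [f, if_pos hi, map_mul, map_inv, hs, hk u i hi]
    · simp only [f, if_neg hi, hs]
  let A : IndGrp ζ := ⟨(g : G), f g, hlift g⟩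
  let B : IndGrp ζ := ⟨(g' : G), f g', hlift g'⟩
  obtain ⟨T, hT⟩ := exists_indKer ζ κ hκ hC ((B * A)⁻¹ * (A * B)) (by
    change ((g' : G) * g)⁻¹ * (g * g') = 1
    rw [← Subgroup.coe_mul, ← Subgroup.coe_mul, hgg, inv_mul_cancel])
  have hAB : A * B = B * A * indKer ζ κ hκ T := by rw [hT, mul_inv_cancel_left]
  have hcomm : ∀ i, f g ((g' : G) • i) * f g' i = f g' ((g : G) • i) * f g i * κ (T i) := fun i => by
    have := congrArg (fun x : IndGrp ζ => x.f i) hAB
    change f g ((g' : G) • i) * f g' i =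
      f g' ((g : G) • (1 : G) • i) * f g ((1 : G) • i) * κ (T i) at this
    simpa only [one_smul] using this
  refine ⟨A, B, T, hAB, fun i hi => hκi ?_, fun i hi hgi hg'i => ?_⟩
  · have h1 := hcomm i
    simp only [f, if_pos hi, if_pos (hi.smul g), if_pos (hi.smul g'), smul_smul, ← Subgroup.coe_mul, hgg] at h1
    rw [map_one]
    group at h1
    simpa using h1.symm
  · have h1 := hcomm i
    simp only [hgi, hg'i] at h1
    simpa only [f, if_neg hi] using h1

/-- Monomial lifts of two commuting elements, computed in a system of representatives. -/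
theorem exists_pair_reps [Fintype (G ⧸ P)] {ι : Type*} [Fintype ι] (ζ : E →* P) (s : P → E)
    (hs : ∀ x, ζ (s x) = x) (κ : C →* E) (hκ : ∀ c, ζ (κ c) = 1) (hκi : Function.Injective κ)
    (hcen : ∀ c y, y * κ c = κ c * y) (hC : ∀ x : E, ζ x = 1 → ∃ c, κ c = x)
    (r : ι → G) (hr : Function.Bijective fun j => ((r j : G) : G ⧸ P))
    (g g' : G) (hgg : g * g' = g' * g) (π π' : ι → ι) (u u' : ι → P)
    (hu : ∀ j, g * r j = r (π j) * u j) (hu' : ∀ j, g' * r j = r (π' j) * u' j) (t : ι → C)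
    (ht : ∀ j, s (u (π' j)) * s (u' j) = s (u' (π j)) * s (u j) * κ (t j)) :
    ∃ (A B : IndGrp ζ) (T : G ⧸ P → C), A * B = B * A * indKer ζ κ hκ T ∧ ∏ i, T i = ∏ j, t j := by
  classical
  let e := Equiv.ofBijective _ hr
  have he : ∀ j, e j = ((r j : G) : G ⧸ P) := fun j => rfl
  let k : ι → P := fun j => ⟨(r j)⁻¹ * cosRep P (e j), QuotientGroup.eq.1 (by rw [cosRep_mk, he])⟩
  have hk : ∀ j, cosRep P (e j) = r j * (k j : G) := fun j => by
    change _ = r j * ((r j)⁻¹ * cosRep P (e j))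
    rw [mul_inv_cancel_left]
  have hmove : ∀ (h : G) (v : ι → P) (ρ : ι → ι), (∀ j, h * r j = r (ρ j) * v j) →
      ∀ j, h • e j = e (ρ j) := fun h v ρ hv j => by
    rw [he, he, MulAction.Quotient.smul_coe, smul_eq_mul, hv]
    exact QuotientGroup.mk_mul_of_mem _ (v j).2
  have hlift : ∀ (h : G) (v : ι → P) (ρ : ι → ι), (∀ j, h * r j = r (ρ j) * v j) →
      ∀ j, cocy P h (e j) = (k (ρ j))⁻¹ * v j * k j := fun h v ρ hv j => by
    refine Subtype.ext ?_
    change (cosRep P (h • e j))⁻¹ * (h * cosRep P (e j)) = ((k (ρ j) : G))⁻¹ * v j * k j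
    rw [hmove h v ρ hv, hk, hk, ← mul_assoc h, hv]
    group
  let f : (ι → P) → (ι → ι) → G ⧸ P → E := fun v ρ i =>
    (s (k (ρ (e.symm i))))⁻¹ * s (v (e.symm i)) * s (k (e.symm i))
  have hf : ∀ (h : G) (v : ι → P) (ρ : ι → ι), (∀ j, h * r j = r (ρ j) * v j) →
      ∀ i, ζ (f v ρ i) = cocy P h i := fun h v ρ hv i => by
    obtain ⟨j, rfl⟩ := e.surjective i
    simp only [f, e.symm_apply_apply, map_mul, map_inv, hs, hlift h v ρ hv j]
  let A : IndGrp ζ := ⟨g, f u π, hf g u π hu⟩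
  let B : IndGrp ζ := ⟨g', f u' π', hf g' u' π' hu'⟩
  obtain ⟨T, hT⟩ := exists_indKer ζ κ hκ hC ((B * A)⁻¹ * (A * B)) (by
    change (g' * g)⁻¹ * (g * g') = 1
    rw [hgg, inv_mul_cancel])
  have hAB : A * B = B * A * indKer ζ κ hκ T := by rw [hT, mul_inv_cancel_left]
  refine ⟨A, B, T, hAB, ?_⟩
  rw [← Equiv.prod_comp e T]
  refine Finset.prod_congr rfl fun j _ => hκi ?_
  have hππ : π (π' j) = π' (π j) := e.injective (by
    rw [← hmove g u π hu, ← hmove g' u' π' hu', ← hmove g' u' π' hu', ← hmove g u π hu, smul_smul, smul_smul,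
      hgg])
  have h1 : f u π (g' • e j) * f u' π' (e j) = f u' π' (g • e j) * f u π (e j) * κ (T (e j)) := by
    have := congrArg (fun x : IndGrp ζ => x.f (e j)) hAB
    change f u π (g' • e j) * f u' π' (e j) =
      f u' π' (g • (1 : G) • e j) * f u π ((1 : G) • e j) * κ (T (e j)) at this
    simpa only [one_smul] using this
  simp only [f, hmove g' u' π' hu', hmove g u π hu, e.symm_apply_apply] at h1
  set q := s (k j)
  set p := s (k (π (π' j)))
  rw [← hππ] at h1
  have h2 : p⁻¹ * (s (u (π' j)) * s (u' j)) * q = p⁻¹ * (s (u' (π j)) * s (u j)) * q * κ (T (e j)) :=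
    Eq.trans (Eq.trans (by group) h1) (by simp only [p, q]; group)
  rw [ht, mul_assoc p⁻¹, mul_assoc (s (u' (π j)) * s (u j)), ← hcen (t j) q, ← mul_assoc, ← mul_assoc,
    mul_assoc p⁻¹ (s (u' (π j)) * s (u j)) q] at h2
  exact (mul_left_cancel h2).symm

variable [Finite G] [Finite E] [Finite C]

/-- The induced central extension. -/
theorem exists_induced (ζ : E →* P) (hζ : Function.Surjective ζ) (κ : C →* E) (hκ : ∀ c, ζ (κ c) = 1)
    (hcen : ∀ c y, y * κ c = κ c * y) (hκi : Function.Injective κ)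
    (hC : ∀ x : E, ζ x = 1 → ∃ c, κ c = x) [Fintype (G ⧸ P)] :
    ∃ (Γ : Type u) (_ : Group Γ) (_ : Finite Γ) (φ : Γ →* G) (inc : C →* Γ),
      Function.Surjective φ ∧ φ.ker ≤ Subgroup.center Γ ∧ Function.Injective inc ∧
      ∀ (A B : IndGrp ζ) (T : G ⧸ P → C), A * B = B * A * indKer ζ κ hκ T →
        inc (∏ i, T i) ∈ φ.ker ⊓ commutator Γ := by
  classical
  let N := indNull ζ κ hκ
  haveI : N.Normal := indNull_normal ζ κ hκ hcen
  haveI : Finite (IndGrp ζ) := Finite.of_injective (fun x => (x.g, x.f))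
    fun x y h => IndGrp.ext' ζ (congrArg Prod.fst h) (congrFun (congrArg Prod.snd h))
  have hNlow : N ≤ (indProj ζ).ker := by rintro _ ⟨_, -, rfl⟩; rfl
  let φ : IndGrp ζ ⧸ N →* G := QuotientGroup.lift N (indProj ζ) hNlow
  have hφs : Function.Surjective φ := fun g => by
    obtain ⟨x, hx⟩ := indProj_surjective ζ hζ g
    exact ⟨(x : IndGrp ζ ⧸ N), hx⟩
  let one' : G ⧸ P := ((1 : G) : G ⧸ P)
  let inc : C →* IndGrp ζ ⧸ N :=
    (QuotientGroup.mk' N).comp ((indKer ζ κ hκ).comp (MonoidHom.mulSingle (fun _ : G ⧸ P => C) one'))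
  have hclass : ∀ t, QuotientGroup.mk' N (indKer ζ κ hκ t) = inc (∏ i, t i) := fun t => by
    refine QuotientGroup.eq.2 ⟨t⁻¹ * Pi.mulSingle (M := fun _ : G ⧸ P => C) one' (∏ i, t i), ?_,
      by rw [map_mul, map_inv]; rfl⟩
    change ∏ i, ((t i)⁻¹ * Pi.mulSingle (M := fun _ : G ⧸ P => C) _ (∏ i, t i) i) = 1
    rw [Finset.prod_mul_distrib, Finset.prod_inv_distrib, Fintype.prod_pi_mulSingle', inv_mul_cancel]
  have hker : φ.ker = inc.range := by
    refine le_antisymm (fun z hz => ?_) ?_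
    · obtain ⟨z, rfl⟩ := QuotientGroup.mk'_surjective N z
      obtain ⟨t, rfl⟩ := exists_indKer ζ κ hκ hC z hz
      exact ⟨_, (hclass t).symm⟩
    · rintro _ ⟨_, rfl⟩; rfl
  have hφc : φ.ker ≤ Subgroup.center (IndGrp ζ ⧸ N) := by
    rw [hker]
    rintro _ ⟨t, rfl⟩
    refine Subgroup.mem_center_iff.2 fun y => ?_
    obtain ⟨y, rfl⟩ := QuotientGroup.mk'_surjective N y
    change QuotientGroup.mk' N y * QuotientGroup.mk' N (indKer ζ κ hκ (Pi.mulSingle _ t)) =
      QuotientGroup.mk' N (indKer ζ κ hκ (Pi.mulSingle _ t)) * _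
    rw [← map_mul, indKer_conj ζ κ hκ hcen, map_mul]
    congr 1
    rw [hclass, hclass]
    congr 1
    exact Fintype.prod_equiv (MulAction.toPerm y.g⁻¹) _ _ fun i => rfl
  have hinj : Function.Injective inc := by
    refine (injective_iff_map_eq_one _).2 fun c hc => ?_
    obtain ⟨t, ht, he⟩ := (QuotientGroup.eq_one_iff _).1 hc
    have h1 : t = Pi.mulSingle one' c := by
      funext i
      exact hκi (congrArg (fun x : IndGrp ζ => x.f i) he)
    have h2 : ∏ i, t i = 1 := ht
    rwa [h1, Fintype.prod_pi_mulSingle'] at h2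
  refine ⟨_, inferInstance, inferInstance, φ, inc, hφs, hφc, hinj, fun A B T hAB => ?_⟩
  refine ⟨hker ▸ ⟨_, rfl⟩, ?_⟩
  have h1 : inc (∏ i, T i) = ⁅(QuotientGroup.mk' N A)⁻¹, (QuotientGroup.mk' N B)⁻¹⁆ := by
    rw [← hclass, commutatorElement_def, inv_inv, inv_inv, ← mul_inv_rev, mul_assoc, ← map_mul, ← map_mul,
      ← map_inv, ← map_mul, hAB, inv_mul_cancel_left]
  rw [h1, commutator_def]
  exact Subgroup.commutator_mem_commutator (Subgroup.mem_top _) (Subgroup.mem_top _)

end CfsgLib.SchurSylow
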