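import Mathlib

/-!
# A sum over the orbits of an abelian group with a cocycle

For commuting elements `a`, `b` of a group acting with a cocycle `c`, the alternating sums of `B (c a, c b)`
vanish on the orbits that are moved.
-/

namespace CfsgLib.SchurSylow

open Finset

variable {P ι V R : Type*} [CommGroup P] [MulAction P ι] [AddCommGroup V] [AddCommGroup R]

/-- The commutator term at a point. -/
def term (B : V →+ V →+ R) (c : P → ι → V) (a b : P) (i : ι) : R :=
  B (c a (b • i)) (c b i) - B (c b (a • i)) (c a i)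

theorem term_swap (B : V →+ V →+ R) (c : P → ι → V) (a b : P) (i : ι) :
    term B c b a i = -term B c a b i := by simp [term]

theorem term_fixed (B : V →+ V →+ R) (c : P → ι → V) {a b : P} {i : ι} (ha : a • i = i) (hb : b • i = i) :
    term B c a b i = B (c a i) (c b i) - B (c b i) (c a i) := by rw [term, ha, hb]

variable {B : V →+ V →+ R} {c : P → ι → V}
  (hc : ∀ g h i, c (g * h) i = c g (h • i) + c h i)

include hc

theorem cocycle_one (i : ι) : c 1 i = 0 := by
  have := hc 1 1 i
  rw [one_mul, one_smul] at this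
  exact left_eq_add.mp this

/-- A cocycle is constant along the orbit for an element of the stabiliser. -/
theorem stab_const {k : P} {i₀ : ι} (hk : k • i₀ = i₀) (h : P) : c k (h • i₀) = c k i₀ := by
  have h1 := hc k h i₀
  rw [mul_comm, hc h k i₀, hk, add_comm] at h1
  exact (add_right_cancel h1).symm

theorem pow_sum (a : P) (i : ι) : ∀ n : ℕ, c (a ^ n) i = ∑ t ∈ range n, c a (a ^ t • i)
  | 0 => by rw [pow_zero, cocycle_one hc, range_zero, sum_empty]
  | n + 1 => by rw [sum_range_succ, pow_succ', hc, pow_sum a i n, add_comm]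

/-- A free orbit contributes zero. -/
theorem sum_free [Fintype P] (a b : P) (i₀ : ι) : ∑ h : P, term B c a b (h • i₀) = 0 := by
  let C : P → V := fun h => c h i₀
  have hC : ∀ g h, c g (h • i₀) = C (g * h) - C h := fun g h => eq_sub_of_add_eq (hc g h i₀).symm
  let Q : P → R := fun s => ∑ h : P, B (C (s * h)) (C h)
  have hQ : ∀ s t, ∑ h : P, B (C (s * t * h)) (C (t * h)) = Q s := fun s t => by
    refine Eq.trans ?_ (Equiv.sum_comp (Equiv.mulLeft t) (fun h => B (C (s * h)) (C h)))
    exact sum_congr rfl fun h _ => by rw [Equiv.coe_mulLeft, mul_assoc]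
  have h0 : ∀ t, ∑ h : P, B (C (t * h)) (C (t * h)) = Q 1 := fun t => by
    rw [← hQ 1 t]; simp only [one_mul]
  have e1 : ∀ h, term B c a b (h • i₀) =
      (B (C (a * b * h)) (C (b * h)) - B (C (a * b * h)) (C h) - B (C (b * h)) (C (b * h)) + B (C (b * h)) (C h))
      - (B (C (b * a * h)) (C (a * h)) - B (C (b * a * h)) (C h) - B (C (a * h)) (C (a * h)) + B (C (a * h)) (C h)) := by
    intro h
    rw [term, smul_smul, smul_smul, hC, hC, hC, hC, ← mul_assoc, ← mul_assoc]
    simp only [map_sub, AddMonoidHom.sub_apply]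
    abel
  rw [sum_congr rfl fun h _ => e1 h]
  simp only [sum_sub_distrib, sum_add_distrib]
  rw [hQ a b, hQ b a, h0 a, h0 b, show b * a = a * b from mul_comm b a]
  change Q a - _ - Q 1 + Q b - (Q b - _ - Q 1 + Q a) = 0
  abel

/-- A moved orbit of a cyclic quotient contributes zero. -/
theorem sum_cyclic [DecidableEq ι] {a b : P} {i₀ : ι} {p n : ℕ} (hap : a ^ p = 1)
    (hinj : Set.InjOn (fun t : ℕ => a ^ t • i₀) (range p : Set ℕ)) (hb : b • i₀ = a ^ n • i₀) :
    ∑ i ∈ (range p).image (fun t : ℕ => a ^ t • i₀), term B c a b i = 0 := by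
  set O := (range p).image (fun t : ℕ => a ^ t • i₀) with hO
  have hmem : ∀ i, i ∈ O → a • i ∈ O := by
    intro i hi
    obtain ⟨t, ht, rfl⟩ := mem_image.1 hi
    have hp : 0 < p := (Nat.zero_le t).trans_lt (mem_range.1 ht)
    refine mem_image.2 ⟨(t + 1) % p, mem_range.2 (Nat.mod_lt _ hp), ?_⟩
    change a ^ ((t + 1) % p) • i₀ = a • a ^ t • i₀
    rw [smul_smul, ← pow_succ', pow_eq_pow_mod (t + 1) hap]
  have hshift : ∀ (f : ι → R) (m : ℕ), ∑ i ∈ O, f (a ^ m • i) = ∑ i ∈ O, f i := by
    intro f m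
    induction m generalizing f with
    | zero => simp
    | succ m ih =>
      simp only [pow_succ', mul_smul]
      rw [ih (fun i => f (a • i))]
      exact sum_bij (fun i _ => a • i) hmem (fun x _ y _ h => MulAction.injective a h) (fun y hy => by
        obtain ⟨x, hx, hxy⟩ := surjOn_of_injOn_of_card_le (fun i => a • i) hmem
          (fun x _ y _ h => MulAction.injective a h) le_rfl hy
        exact ⟨x, hx, hxy⟩) (fun i _ => rfl)
  have hsum0 : ∑ i ∈ O, c a i = 0 := by
    rw [hO, sum_image hinj, ← pow_sum hc, hap, cocycle_one hc]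
  set k := (a ^ n)⁻¹ * b with hk
  have hk0 : k • i₀ = i₀ := by rw [hk, mul_smul, hb, inv_smul_smul]
  have hbk : b = a ^ n * k := by rw [hk, mul_inv_cancel_left]
  have hpt : ∀ i ∈ O, b • i = a ^ n • i ∧ c b i = c (a ^ n) i + c k i₀ := by
    intro i hi
    obtain ⟨t, -, rfl⟩ := mem_image.1 hi
    have h1 : k • (a ^ t • i₀) = a ^ t • i₀ := by rw [smul_smul, mul_comm, mul_smul, hk0]
    constructor
    · rw [hbk, mul_smul, h1]
    · rw [hbk, hc, h1, stab_const hc hk0]
  have e1 : ∀ i ∈ O, term B c a b i =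
      (B (c a (a ^ n • i)) (c (a ^ n) i) - B (c (a ^ n) (a • i)) (c a i))
        + (B (c a (a ^ n • i)) (c k i₀) - B (c k i₀) (c a i)) := by
    intro i hi
    rw [term, (hpt i hi).1, (hpt i hi).2, (hpt _ (hmem i hi)).2]
    simp only [map_add, AddMonoidHom.add_apply]
    abel
  rw [sum_congr rfl e1, sum_add_distrib, sum_sub_distrib, sum_sub_distrib]
  have h2 : ∑ i ∈ O, B (c a (a ^ n • i)) (c k i₀) = 0 := by
    rw [hshift (fun i => B (c a i) (c k i₀)) n]
    have : B (∑ i ∈ O, c a i) (c k i₀) = 0 := by rw [hsum0, map_zero, AddMonoidHom.zero_apply]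
    rw [← this, map_sum, AddMonoidHom.finsetSum_apply]
  have h3 : ∑ i ∈ O, B (c k i₀) (c a i) = 0 := by rw [← map_sum, hsum0, map_zero]
  have h4 : ∑ i ∈ O, B (c a (a ^ n • i)) (c (a ^ n) i) = ∑ i ∈ O, B (c (a ^ n) (a • i)) (c a i) := by
    simp only [pow_sum hc _ _ n, map_sum, AddMonoidHom.finsetSum_apply]
    rw [sum_comm, sum_comm (s := O), ← sum_range_reflect]
    refine sum_congr rfl fun t ht => ?_
    have ht' := mem_range.1 ht
    rw [← hshift (fun i => B (c a (a ^ t • a • i)) (c a i)) (n - 1 - t)]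
    refine sum_congr rfl fun i _ => ?_
    congr 3
    rw [smul_smul, smul_smul, ← pow_succ, ← pow_add]
    congr 2
    omega
  rw [h2, h3, h4]
  abel

end CfsgLib.SchurSylow
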