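import Cfsg.Agent.Schur.SylowSummand
import Cfsg.Agent.Schur.Cocycle
import Cfsg.Agent.Schur.Stemify
import Cfsg.Agent.SchurSylow.Orbit

/-!
# A cover of prime degree from a Sylow subgroup of order `p ^ 2`

If a Sylow `p`-subgroup is elementary abelian of order `p ^ 2` and its normaliser acts on it with
determinant one, the Heisenberg extension corestricts to a nontrivial cover of the whole group.
-/

namespace CfsgLib.SchurSylow

open CfsgLib.Schur
open scoped commutatorElement

universe u

/-- The determinant of two vectors. -/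
def det {p : ℕ} (x y : ZMod p × ZMod p) : ZMod p := x.1 * y.2 - y.1 * x.2

/-- The product of the first coordinate with the second, as a biadditive map. -/
def heis (p : ℕ) {V : Type*} [AddCommGroup V] (v : V →+ ZMod p × ZMod p) :
    V →+ V →+ ULift.{u} (ZMod p) :=
  AddMonoidHom.mk' (fun x => AddMonoidHom.mk' (fun y => ULift.up ((v x).1 * (v y).2))
    (fun y z => by rw [map_add, Prod.snd_add, mul_add]; rfl))
    (fun x y => AddMonoidHom.ext fun z => by
      change ULift.up ((v (x + y)).1 * (v z).2) = _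
      rw [map_add, Prod.fst_add, add_mul]; rfl)

variable {G : Type u} [Group G] [Finite G] {p : ℕ} [hp : Fact p.Prime]

theorem mem_normalizer_of_conj_mem (P : Subgroup G) {g : G} (h : ∀ x ∈ P, g * x * g⁻¹ ∈ P) :
    g ∈ Subgroup.normalizer (P : Set G) := by
  have hle : P.map (MulAut.conj g).toMonoidHom ≤ P := by
    rintro _ ⟨x, hx, rfl⟩; exact h x hx
  have heq := Subgroup.eq_of_le_of_card_ge hle
    (le_of_eq (Subgroup.card_map_of_injective (MulAut.conj g).injective).symm)
  refine Subgroup.mem_normalizer_iff.2 fun x => ⟨h x, fun hx => ?_⟩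
  rw [← heq] at hx
  obtain ⟨y, hy, hxy⟩ := hx
  have : y = x := mul_left_cancel (mul_right_cancel hxy)
  exact this ▸ hy

set_option maxHeartbeats 2000000 in
theorem exists_cover (P : Sylow p G) (v : (P : Subgroup G) →* Multiplicative (ZMod p × ZMod p))
    (hv : Function.Bijective v) (a b : (P : Subgroup G)) (ha : v a = Multiplicative.ofAdd (1, 0))
    (hb : v b = Multiplicative.ofAdd (0, 1))
    (hdet : ∀ g ∈ Subgroup.normalizer ((P : Subgroup G) : Set G), ∀ x y : (P : Subgroup G),
      (x : G) = g * a * g⁻¹ → (y : G) = g * b * g⁻¹ →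
        det (v x).toAdd (v y).toAdd = 1) :
    ∃ (Γ : Type u) (_ : Group Γ) (_ : Finite Γ) (σ : Γ →* G),
      Cfsg.IsStemExtension σ ∧ Nat.card σ.ker = p := by
  classical
  letI : CommGroup (P : Subgroup G) :=
    { (inferInstance : Group (P : Subgroup G)) with
      mul_comm := fun x y => hv.1 (by rw [map_mul, map_mul, mul_comm]) }
  haveI := Fintype.ofFinite G
  haveI := Fintype.ofFinite (G ⧸ (P : Subgroup G))
  haveI := Fintype.ofFinite (P : Subgroup G)
  haveI : NeZero p := ⟨hp.out.ne_zero⟩
  have hdec : ∀ h : (P : Subgroup G), ∃ m l : ℕ, h = a ^ m * b ^ l := fun h =>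
    ⟨(v h).toAdd.1.val, (v h).toAdd.2.val, hv.1 (by
      rw [map_mul, map_pow, map_pow, ha, hb, ← ofAdd_nsmul, ← ofAdd_nsmul, ← ofAdd_add]
      refine Multiplicative.toAdd.injective ?_
      rw [toAdd_ofAdd]
      ext <;> simp)⟩
  have hap : a ^ p = 1 := hv.1 (by
    rw [map_pow, map_one, ha, ← ofAdd_nsmul]
    simp)
  have hbp : b ^ p = 1 := hv.1 (by
    rw [map_pow, map_one, hb, ← ofAdd_nsmul]
    simp)
  let v' : Additive (P : Subgroup G) →+ ZMod p × ZMod p := MonoidHom.toAdditiveLeft v
  let β : Additive (P : Subgroup G) →+ Additive (P : Subgroup G) →+ ULift.{u} (ZMod p) := heis p v'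
  let c : ↥(P : Subgroup G) → G ⧸ (P : Subgroup G) → Additive (P : Subgroup G) :=
    fun (g : (P : Subgroup G)) i => Additive.ofMul (cocy (P : Subgroup G) (g : G) i)
  have hc : ∀ (g h : (P : Subgroup G)) (i : G ⧸ (P : Subgroup G)), c (g * h) i = c g (h • i) + c h i := fun g h i =>
    congrArg Additive.ofMul (cocy_mul (P : Subgroup G) (g : G) (h : G) i)
  let T : G ⧸ (P : Subgroup G) → ULift.{u} (ZMod p) := term β c a b
  let fixd : G ⧸ (P : Subgroup G) → Prop := fun i => ∀ h : (P : Subgroup G), h • i = i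
  -- the fixed cosets
  have hfixed : ∀ i, fixd i → T i = ULift.up 1 := by
    intro i hi
    set r := cosRep (P : Subgroup G) i
    have hrep : ∀ h : (P : Subgroup G), (cocy (P : Subgroup G) (h : G) i : G) = r⁻¹ * h * r := fun h => by
      change (cosRep (P : Subgroup G) ((h : G) • i))⁻¹ * ((h : G) * r) = _
      rw [show (h : G) • i = i from hi h, mul_assoc]
    have hr : r⁻¹ ∈ Subgroup.normalizer ((P : Subgroup G) : Set G) :=
      mem_normalizer_of_conj_mem _ fun x hx => by
        rw [inv_inv, ← hrep ⟨x, hx⟩]; exact (cocy (P : Subgroup G) x i).2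
    have h1 := hdet _ hr (cocy (P : Subgroup G) (a : G) i) (cocy (P : Subgroup G) (b : G) i)
      (by rw [hrep, inv_inv]) (by rw [hrep, inv_inv])
    change term β c a b i = _
    rw [term_fixed β c (hi a) (hi b)]
    exact congrArg ULift.up h1
  let f : G ⧸ (P : Subgroup G) → ULift.{u} (ZMod p) := fun i => T i - if fixd i then ULift.up 1 else 0
  -- every orbit
  have hinj : ∀ (x : (P : Subgroup G)) (i : G ⧸ (P : Subgroup G)), x ^ p = 1 → x • i ≠ i →
      Set.InjOn (fun t : ℕ => x ^ t • i) (Finset.range p : Set ℕ) := by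
    intro x i hxp hxi
    have key : ∀ s t, s ≤ t → t < p → x ^ s • i = x ^ t • i → s = t := by
      intro s t hst ht h
      by_contra hne
      apply hxi
      have h1 : x ^ (t - s) • i = i := by
        have h2 : x ^ t • i = x ^ s • (x ^ (t - s) • i) := by
          rw [smul_smul, ← pow_add, Nat.add_sub_cancel' hst]
        rw [h2] at h
        exact (smul_left_cancel _ h).symm
      have hcop : Nat.Coprime (t - s) p := (Nat.coprime_comm.1 ((hp.out.coprime_iff_not_dvd).2
        (Nat.not_dvd_of_pos_of_lt (by omega) (by omega))))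
      obtain ⟨j, -, hj⟩ := Nat.exists_mul_mod_eq_one_of_coprime hcop hp.out.one_lt
      have h3 : x = (x ^ (t - s)) ^ j := by
        rw [← pow_mul, pow_eq_pow_mod _ hxp, hj, pow_one]
      have h4 : x ^ (t - s) ∈ MulAction.stabilizer (P : Subgroup G) i := h1
      exact h3 ▸ pow_mem h4 j
    intro s hs t ht h
    rcases le_total s t with hst | hst
    · exact key s t hst (Finset.mem_range.1 ht) h
    · exact (key t s hst (Finset.mem_range.1 hs) h.symm).symm
  have hcyc : ∀ (x y : (P : Subgroup G)) (i : G ⧸ (P : Subgroup G)) (n : ℕ), x ^ p = 1 → x • i ≠ i →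
      y • i = x ^ n • i → (∀ h : (P : Subgroup G), ∃ m l : ℕ, h = x ^ m * y ^ l) →
      ∑ j ∈ Finset.univ.filter (fun j => ∃ h : (P : Subgroup G), h • i = j), term β c x y j = 0 := by
    intro x y i n hxp hxi hyi hgen
    rw [← sum_cyclic hc hxp (hinj x i hxp hxi) hyi (B := β)]
    refine Finset.sum_congr ?_ fun _ _ => rfl
    ext j
    simp only [Finset.mem_filter, Finset.mem_univ, true_and, Finset.mem_image, Finset.mem_range]
    constructor
    · rintro ⟨h, rfl⟩
      obtain ⟨m, l, rfl⟩ := hgen h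
      refine ⟨(m + n * l) % p, Nat.mod_lt _ hp.out.pos, ?_⟩
      rw [← pow_eq_pow_mod _ hxp, mul_smul]
      have : ∀ l, y ^ l • i = x ^ (n * l) • i := by
        intro l
        induction l with
        | zero => simp
        | succ l ih =>
          rw [pow_succ', mul_smul, ih, smul_smul, mul_comm y, mul_smul, hyi, smul_smul, ← pow_add, Nat.mul_succ]
      rw [this, smul_smul, ← pow_add]
    · rintro ⟨t, -, rfl⟩
      exact ⟨x ^ t, rfl⟩
  have horb : ∀ i, ∑ j ∈ Finset.univ.filter (fun j => ∃ h : (P : Subgroup G), h • i = j), f j = 0 := by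
    intro i
    by_cases hi : fixd i
    · rw [show Finset.univ.filter (fun j => ∃ h : (P : Subgroup G), h • i = j) = {i} by
        ext j
        simp only [Finset.mem_filter, Finset.mem_univ, true_and, Finset.mem_singleton]
        exact ⟨fun ⟨h, e⟩ => e ▸ hi h, fun e => ⟨1, by rw [one_smul, e]⟩⟩, Finset.sum_singleton]
      change T i - (if fixd i then _ else _) = 0
      rw [if_pos hi, hfixed i hi, sub_self]
    have hnf : ∀ j ∈ Finset.univ.filter (fun j => ∃ h : (P : Subgroup G), h • i = j), ¬ fixd j := by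
      intro j hj hjf
      obtain ⟨h, rfl⟩ := (Finset.mem_filter.1 hj).2
      exact hi fun k => smul_left_cancel h (by rw [smul_smul, mul_comm, mul_smul, hjf])
    rw [Finset.sum_congr rfl fun j hj => show f j = T j by
      change T j - (if fixd j then _ else _) = T j
      rw [if_neg (hnf j hj), sub_zero]]
    by_cases hai : a • i = i
    · have hbi : b • i ≠ i := fun hbi => hi fun h => by
        obtain ⟨m, l, rfl⟩ := hdec h
        have h1 : a ∈ MulAction.stabilizer (P : Subgroup G) i := hai
        have h2 : b ∈ MulAction.stabilizer (P : Subgroup G) i := hbi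
        exact mul_mem (pow_mem h1 m) (pow_mem h2 l)
      have h := hcyc b a i 0 hbp hbi (by rw [pow_zero, one_smul, hai]) fun h => by
        obtain ⟨m, l, rfl⟩ := hdec h
        exact ⟨l, m, mul_comm _ _⟩
      simp only [term_swap β c a b, Finset.sum_neg_distrib, neg_eq_zero] at h
      exact h
    by_cases hex : ∃ n : ℕ, b • i = a ^ n • i
    · obtain ⟨n, hn⟩ := hex
      exact hcyc a b i n hap hai hn hdec
    · have hfree : Function.Injective fun h : (P : Subgroup G) => h • i := by
        intro h1 h2 e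
        have he : (h2⁻¹ * h1) • i = i := by
          rw [mul_smul]; exact inv_smul_eq_iff.2 e
        obtain ⟨m, l, hml⟩ := hdec (h2⁻¹ * h1)
        suffices h2⁻¹ * h1 = 1 by rw [← inv_mul_eq_one.1 this]
        have hbl : b ^ l = 1 := by
          by_contra hl
          apply hex
          have hcop : Nat.Coprime l p := Nat.coprime_comm.1 ((hp.out.coprime_iff_not_dvd).2 fun hd => hl (by
            obtain ⟨t, rfl⟩ := hd
            rw [pow_mul, hbp, one_pow]))
          obtain ⟨j, -, hj⟩ := Nat.exists_mul_mod_eq_one_of_coprime hcop hp.out.one_lt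
          refine ⟨(p - 1) * m * j, ?_⟩
          have hs : ((h2⁻¹ * h1) ^ j) • i = i :=
            pow_mem (show h2⁻¹ * h1 ∈ MulAction.stabilizer (P : Subgroup G) i from he) j
          rw [hml, mul_pow, ← pow_mul b, pow_eq_pow_mod (l * j) hbp, hj, pow_one, mul_smul] at hs
          have h4 : a ^ ((p - 1) * m * j) * (a ^ m) ^ j = 1 := by
            rw [← pow_mul, ← pow_add, show (p - 1) * m * j + m * j = p * (m * j) by
              have := hp.out.pos
              rw [mul_assoc, ← Nat.add_one_mul, Nat.sub_add_cancel this],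
              pow_mul, hap, one_pow]
          conv_rhs => rw [← hs, smul_smul, h4, one_smul]
        rw [hml, hbl, mul_one] at he ⊢
        by_contra hm
        have hcop : Nat.Coprime m p := Nat.coprime_comm.1 ((hp.out.coprime_iff_not_dvd).2 fun hd => hm (by
          obtain ⟨t, rfl⟩ := hd
          rw [pow_mul, hap, one_pow]))
        obtain ⟨j, -, hj⟩ := Nat.exists_mul_mod_eq_one_of_coprime hcop hp.out.one_lt
        apply hai
        have hs : ((a ^ m) ^ j) • i = i :=
          pow_mem (show a ^ m ∈ MulAction.stabilizer (P : Subgroup G) i from he) j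
        rw [← pow_mul, pow_eq_pow_mod _ hap, hj, pow_one] at hs
        exact hs
      rw [← sum_free hc a b i (B := β)]
      refine (Finset.sum_bij (fun h _ => h • i) (fun h _ => ?_) (fun x _ y _ e => hfree e)
        (fun j hj => ?_) (fun h _ => rfl)).symm
      · exact Finset.mem_filter.2 ⟨Finset.mem_univ _, h, rfl⟩
      · obtain ⟨h, rfl⟩ := (Finset.mem_filter.1 hj).2
        exact ⟨h, Finset.mem_univ _, rfl⟩
  have hsum : ∑ i, f i = 0 := by
    rw [← Finset.sum_fiberwise Finset.univ
      (fun i => (Quotient.mk (MulAction.orbitRel (P : Subgroup G) (G ⧸ (P : Subgroup G))) i)) f]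
    refine Finset.sum_eq_zero fun ω _ => ?_
    obtain ⟨i, rfl⟩ := Quotient.exists_rep ω
    rw [← horb i]
    refine Finset.sum_congr ?_ fun _ _ => rfl
    ext j
    simp only [Finset.mem_filter, Finset.mem_univ, true_and, Quotient.eq, MulAction.orbitRel_apply]
    exact Iff.rfl
  have hT : ∑ i, T i ≠ 0 := by
    simp only [f, Finset.sum_sub_distrib, sub_eq_zero] at hsum
    rw [hsum, Finset.sum_ite, Finset.sum_const_zero, add_zero, Finset.sum_const]
    intro h0
    have h1 : ((Finset.univ.filter fixd).card : ZMod p) = 0 := by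
      have := congrArg ULift.down h0
      simpa using this
    rw [ZMod.natCast_eq_zero_iff] at h1
    have h2 : Nat.card (MulAction.fixedPoints (P : Subgroup G) (G ⧸ (P : Subgroup G))) = (Finset.univ.filter fixd).card := by
      rw [Nat.card_eq_fintype_card, Fintype.card_ofFinset]
      congr 1
      ext i
      simp [fixd, MulAction.mem_fixedPoints]
    have h3 := P.2.card_modEq_card_fixedPoints (G ⧸ (P : Subgroup G))
    rw [h2] at h3
    refine P.not_dvd_index ?_
    rw [Subgroup.index_eq_card]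
    exact (Nat.modEq_zero_iff_dvd.1 (h3.trans (Nat.modEq_zero_iff_dvd.2 h1)))
  -- the extension
  let F := BilExt β
  let ζ : F →* (P : Subgroup G) := bilProj β
  let κ : Multiplicative (ULift.{u} (ZMod p)) →* F := bilIncl β
  have hκ : ∀ x, ζ (κ x) = 1 := fun x => rfl
  have hcen : ∀ x y, y * κ x = κ x * y := fun x y =>
    Subgroup.mem_center_iff.1 (bilProj_ker_le_center β (MonoidHom.mem_ker.2 (hκ x))) y
  have hκi : Function.Injective κ := fun x y h =>
    Multiplicative.toAdd.injective (congrArg BilExt.fib h)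
  have hC : ∀ x : F, ζ x = 1 → ∃ t, κ t = x := fun x hx =>
    ⟨Multiplicative.ofAdd x.fib, BilExt.ext hx.symm rfl⟩
  let N := indNull ζ κ hκ
  haveI : N.Normal := indNull_normal ζ κ hκ hcen
  haveI : Finite (IndGrp ζ) := Finite.of_injective (fun x => (x.g, x.f))
    fun x y h => IndGrp.ext' ζ (congrArg Prod.fst h) (congrFun (congrArg Prod.snd h))
  have hNlow : N ≤ (indProj ζ).ker := by rintro _ ⟨_, -, rfl⟩; rfl
  let φ : IndGrp ζ ⧸ N →* G := QuotientGroup.lift N (indProj ζ) hNlow
  have hφs : Function.Surjective φ := fun g => by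
    obtain ⟨x, hx⟩ := indProj_surjective ζ (bilProj_surjective β) g
    exact ⟨(x : IndGrp ζ ⧸ N), hx⟩
  let inc : Multiplicative (ULift.{u} (ZMod p)) →* IndGrp ζ ⧸ N :=
    (QuotientGroup.mk' N).comp ((indKer ζ κ hκ).comp
      (MonoidHom.mulSingle (fun _ : G ⧸ (P : Subgroup G) => Multiplicative (ULift.{u} (ZMod p)))
        ((1 : G) : G ⧸ (P : Subgroup G))))
  have hclass : ∀ t, QuotientGroup.mk' N (indKer ζ κ hκ t) = inc (∏ i, t i) := fun t => by
    refine QuotientGroup.eq.2 ⟨t⁻¹ * Pi.mulSingle (M := fun _ : G ⧸ (P : Subgroup G) => Multiplicative (ULift.{u} (ZMod p)))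
      ((1 : G) : G ⧸ (P : Subgroup G)) (∏ i, t i), ?_, by rw [map_mul, map_inv]; rfl⟩
    change ∏ i, ((t i)⁻¹ * Pi.mulSingle (M := fun _ : G ⧸ (P : Subgroup G) => Multiplicative (ULift.{u} (ZMod p))) _ (∏ i, t i) i) = 1
    rw [Finset.prod_mul_distrib, Finset.prod_inv_distrib, Fintype.prod_pi_mulSingle', inv_mul_cancel]
  have hker : φ.ker = inc.range := by
    refine le_antisymm (fun z hz => ?_) ?_
    · obtain ⟨z, rfl⟩ := QuotientGroup.mk'_surjective N z
      obtain ⟨t, rfl⟩ := exists_indKer ζ κ hκ hC z hz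
      exact ⟨_, (hclass t).symm⟩
    · rintro _ ⟨_, rfl⟩; rfl
  have hφc : φ.ker ≤ Subgroup.center (IndGrp ζ ⧸ N) := by
    rw [hker]
    rintro _ ⟨t, rfl⟩
    refine Subgroup.mem_center_iff.2 fun y => ?_
    obtain ⟨y, rfl⟩ := QuotientGroup.mk'_surjective N y
    change QuotientGroup.mk' N y * QuotientGroup.mk' N (indKer ζ κ hκ (Pi.mulSingle _ t)) =
      QuotientGroup.mk' N (indKer ζ κ hκ (Pi.mulSingle _ t)) * _
    rw [← map_mul]
    rw [indKer_conj ζ κ hκ hcen, map_mul]
    congr 1
    rw [hclass, hclass]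
    congr 1
    exact Fintype.prod_equiv (MulAction.toPerm y.g⁻¹) _ _ fun i => rfl
  -- two lifts
  let A : IndGrp ζ := ⟨(a : G), fun i => ⟨cocy (P : Subgroup G) (a : G) i, 0⟩, fun i => rfl⟩
  let B : IndGrp ζ := ⟨(b : G), fun i => ⟨cocy (P : Subgroup G) (b : G) i, 0⟩, fun i => rfl⟩
  have hAB : A * B = B * A * indKer ζ κ hκ (fun i => Multiplicative.ofAdd (T i)) := by
    refine IndGrp.ext' ζ ?_ fun i => BilExt.ext ?_ ?_
    · change (a : G) * b = b * a * 1
      rw [mul_one]
      exact congrArg Subtype.val (mul_comm a b)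
    · change cocy (P : Subgroup G) (a : G) (b • i) * cocy (P : Subgroup G) (b : G) i =
        cocy (P : Subgroup G) (b : G) (a • (1 : G) • i) * cocy (P : Subgroup G) (a : G) ((1 : G) • i) * 1
      rw [one_smul, mul_one]
      refine Additive.ofMul.injective ?_
      change c a (b • i) + c b i = c b (a • i) + c a i
      rw [← hc, ← hc, mul_comm]
    · change (0 : ULift.{u} (ZMod p)) + 0 + β (c a (b • i)) (c b i) =
        (0 + 0 + β (c b (a • (1 : G) • i)) (c a ((1 : G) • i))) + T i + β _ (Additive.ofMul 1)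
      rw [one_smul, ofMul_one, map_zero, add_zero, zero_add, zero_add, add_zero]
      change _ = β (c b (a • i)) (c a i) + term β c a b i
      rw [term, add_sub_cancel]
  have hne : inc (∏ i, Multiplicative.ofAdd (T i)) ≠ 1 := by
    intro h
    obtain ⟨t, ht, he⟩ := (QuotientGroup.eq_one_iff _).1 h
    have h1 : t = Pi.mulSingle ((1 : G) : G ⧸ (P : Subgroup G)) (∏ i, Multiplicative.ofAdd (T i)) := by
      funext i
      exact hκi (congrArg (fun x : IndGrp ζ => x.f i) he)
    have h2 : ∏ i, t i = 1 := ht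
    rw [h1, Fintype.prod_pi_mulSingle', ← ofAdd_sum, ofAdd_eq_one] at h2
    exact hT h2
  have hcomm : inc (∏ i, Multiplicative.ofAdd (T i)) ∈ φ.ker ⊓ commutator (IndGrp ζ ⧸ N) := by
    refine ⟨hker ▸ ⟨_, rfl⟩, ?_⟩
    have h1 : inc (∏ i, Multiplicative.ofAdd (T i)) =
        ⁅(QuotientGroup.mk' N A)⁻¹, (QuotientGroup.mk' N B)⁻¹⁆ := by
      rw [← hclass, commutatorElement_def, inv_inv, inv_inv, ← mul_inv_rev, mul_assoc, ← map_mul, ← map_mul,
        ← map_inv, ← map_mul, hAB, inv_mul_cancel_left]
    rw [h1, commutator_def]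
    exact Subgroup.commutator_mem_commutator (Subgroup.mem_top _) (Subgroup.mem_top _)
  obtain ⟨Γ, iG, iF, σ, hσ, ⟨e⟩⟩ := exists_stem φ hφs hφc
  refine ⟨Γ, iG, iF, σ, hσ, (Nat.card_congr e.toEquiv).trans ?_⟩
  have hle : Nat.card ↥(φ.ker ⊓ commutator (IndGrp ζ ⧸ N)) ∣ p := by
    refine (Subgroup.card_dvd_of_le inf_le_left).trans ?_
    rw [hker]
    refine (Subgroup.card_range_dvd inc).trans ?_
    rw [Nat.card_congr Multiplicative.toAdd, Nat.card_congr Equiv.ulift, Nat.card_zmod]
  rcases (Nat.dvd_prime hp.out).1 hle with h | h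
  · rw [Subgroup.card_eq_one] at h
    exact absurd (Subgroup.mem_bot.1 (h ▸ hcomm)) hne
  · exact h

end CfsgLib.SchurSylow
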