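import Cfsg.Agent.SchurSylow.Cover
import Cfsg.Agent.SchurSylow.Bound
import Cfsg.Agent.Schur.Pullback
import Cfsg.Agent.S3951
import Cfsg.Agent.S3965
import Cfsg.Agent.S3979
import Cfsg.Agent.S0891

/-!
# The multipliers of the alternating groups of degrees six and seven
-/

set_option maxRecDepth 100000

namespace CfsgLib.SchurSylow

open Equiv Equiv.Perm CfsgLib.Schur

/-- The parity argument: normalising elements act with determinant one. -/
theorem det_aux {n : ℕ} (a b : Perm (Fin n)) (o o' : Fin n) (c₁ c₂ w : Perm (Fin n))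
    (hsa : a.support.card = 3) (hsb : b.support.card = 3)
    (hcyc : ∀ i j : ZMod 3, (a ^ i.val * b ^ j.val).support.card = 3 →
      (i, j) ∈ ([(1, 0), (2, 0), (0, 1), (0, 2)] : List (ZMod 3 × ZMod 3)))
    (ha : ∀ k, a k ≠ k → b k = k ∧ ∃ r : Fin 3, k = (a ^ (r : ℕ)) o)
    (hb : ∀ k, b k ≠ k → a k = k ∧ ∃ r : Fin 3, k = (b ^ (r : ℕ)) o')
    (ho : a o ≠ o) (ho' : b o' ≠ o')
    (huniq : ∀ k l, a k = k → b k = k → a l = l → b l = l → k = l)
    (hab : a * b = b * a)
    (hc₁ : sign c₁ = -1 ∧ c₁ * a = a ^ 2 * c₁ ∧ c₁ * b = b * c₁)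
    (hc₂ : sign c₂ = -1 ∧ c₂ * a = a * c₂ ∧ c₂ * b = b ^ 2 * c₂)
    (hw : sign w = -1 ∧ w * a = b * w ∧ w * b = a * w)
    (hsgn : sign a = 1 ∧ sign b = 1)
    {g : Perm (Fin n)} (hg : sign g = 1) {x y : ZMod 3 × ZMod 3}
    (hx : g * a = a ^ x.1.val * b ^ x.2.val * g) (hy : g * b = a ^ y.1.val * b ^ y.2.val * g) :
    det x y = 1 := by
  have hcent : ∀ h : Perm (Fin n), h * a = a * h → h * b = b * h → sign h = 1 := by
    intro h h1 h2
    have e1 : ∀ k, h (a k) = a (h k) := fun k => congrFun (congrArg (⇑) h1) k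
    have e2 : ∀ k, h (b k) = b (h k) := fun k => congrFun (congrArg (⇑) h2) k
    obtain ⟨-, r, hr⟩ := ha (h o) (fun e => ho (h.injective (by rw [e1, e])))
    obtain ⟨-, s, hs⟩ := hb (h o') (fun e => ho' (h.injective (by rw [e2, e])))
    have he : h = a ^ (r : ℕ) * b ^ (s : ℕ) := by
      refine Equiv.ext fun k => ?_
      have hf : ∀ (c : Perm (Fin n)) (m : ℕ), c k = k → (c ^ m) k = k := fun c m hc => by
        induction m with
        | zero => rfl
        | succ m ih => rw [pow_succ, Perm.mul_apply, hc, ih]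
      by_cases hak : a k = k
      · by_cases hbk : b k = k
        · rw [Perm.mul_apply, hf b _ hbk, hf a _ hak]
          exact huniq _ _ (by rw [← e1, hak]) (by rw [← e2, hbk]) hak hbk
        · obtain ⟨-, t, rfl⟩ := hb k hbk
          have h3 : h ((b ^ (t : ℕ)) o') = (b ^ (t : ℕ)) (h o') :=
            congrFun (congrArg (⇑) ((show Commute h b from h2).pow_right (t : ℕ)).eq) o'
          have hmov : b ((b ^ (t : ℕ)) ((b ^ (s : ℕ)) o')) ≠ (b ^ (t : ℕ)) ((b ^ (s : ℕ)) o') := by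
            rw [← hs]; rw [← h3, ← e2]; exact fun e => hbk (h.injective e)
          rw [h3, hs, Perm.mul_apply, ← Perm.mul_apply, ← Perm.mul_apply (b ^ (s : ℕ)),
            ((Commute.refl b).pow_pow (s : ℕ) (t : ℕ)).eq, Perm.mul_apply, ]
          have h4 := (hb _ hmov).1
          have hfx : ∀ (m : ℕ) (z : Fin n), a z = z → (a ^ m) z = z := fun m z hz => by
            induction m with
            | zero => rfl
            | succ m ih => rw [pow_succ, Perm.mul_apply, hz, ih]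
          exact (hfx _ _ h4).symm
      · obtain ⟨hbk, t, rfl⟩ := ha k hak
        have h3 : h ((a ^ (t : ℕ)) o) = (a ^ (t : ℕ)) (h o) :=
          congrFun (congrArg (⇑) ((show Commute h a from h1).pow_right (t : ℕ)).eq) o
        rw [h3, hr, Perm.mul_apply, hf b _ hbk, ← Perm.mul_apply, ← Perm.mul_apply (a ^ (r : ℕ)),
          ((Commute.refl a).pow_pow (r : ℕ) (t : ℕ)).eq]
    rw [he, map_mul, map_pow, map_pow, hsgn.1, hsgn.2, one_pow, one_pow, one_mul]
  have hbad : ∀ u : Perm (Fin n), sign u = -1 → u * a = g * a * g⁻¹ * u → u * b = g * b * g⁻¹ * u → False := by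
    intro u hu h1 h2
    have h3 := hcent (g⁻¹ * u) (by rw [mul_assoc, h1]; group) (by rw [mul_assoc, h2]; group)
    rw [map_mul, map_inv, hg, hu] at h3
    exact absurd h3 (by decide)
  have hx' : g * a * g⁻¹ = a ^ x.1.val * b ^ x.2.val := by rw [hx, mul_inv_cancel_right]
  have hy' : g * b * g⁻¹ = a ^ y.1.val * b ^ y.2.val := by rw [hy, mul_inv_cancel_right]
  have hxm := hcyc x.1 x.2 (by rw [← hx', Perm.card_support_conj, hsa])
  have hym := hcyc y.1 y.2 (by rw [← hy', Perm.card_support_conj, hsb])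
  have hne : x ≠ y := fun e => by
    rw [e, ← hy'] at hx'
    exact ho (by rw [mul_left_cancel (mul_right_cancel hx')]; exact (ha o ho).1)
  have hsame : ¬ ((x.2 = 0) ↔ (y.2 = 0)) := by
    intro hiff
    have hcomm : Commute (g * a * g⁻¹) (g * b * g⁻¹) := (show Commute a b from hab).map (MulAut.conj g).toMonoidHom
    have hxv := List.mem_cons.1 hxm
    have hne' : g o ≠ g o' := fun e => ho' (by
      have := g.injective e
      rw [← this]; exact (ha o ho).1)
    have hmove : ∀ (c : Perm (Fin n)) (z : Fin n), c z ≠ z → (g * c * g⁻¹) (g z) ≠ g z := fun c z hz e => hz (by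
      simpa using g.injective (by simpa using e))
    have m1 := hmove a o ho
    have m2 := hmove b o' ho'
    have f1 : (g * b * g⁻¹) (g o) = g o := by simp [(ha o ho).1]
    rw [hx'] at m1
    rw [hy'] at f1
    revert hiff hne
    rcases x with ⟨x1, x2⟩
    rcases y with ⟨y1, y2⟩
    simp only [List.mem_cons, List.not_mem_nil, or_false, Prod.mk.injEq] at hxm hym
    have one_val : (1 : ZMod 3).val = 1 := rfl
    have two_val : (2 : ZMod 3).val = 2 := rfl
    have sq_move : ∀ (c : Perm (Fin n)) (z : Fin n), c z = z → (c ^ 2) z = z := fun c z hz => by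
      rw [pow_two, Perm.mul_apply, hz, hz]
    have cube : ∀ (c : Perm (Fin n)) (z : Fin n), c ^ 3 = 1 → (c ^ 2) z = z → c z = z := fun c z h3 hz => by
      have : (c ^ 3) z = z := by rw [h3]; rfl
      rw [pow_succ', Perm.mul_apply, hz] at this
      exact this
    have ha3 : a ^ 3 = 1 := (card_support_eq_three_iff.1 hsa).orderOf ▸ pow_orderOf_eq_one a
    have hb3 : b ^ 3 = 1 := (card_support_eq_three_iff.1 hsb).orderOf ▸ pow_orderOf_eq_one b
    intro hne hiff
    rcases hxm with ⟨rfl, rfl⟩ | ⟨rfl, rfl⟩ | ⟨rfl, rfl⟩ | ⟨rfl, rfl⟩ <;>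
      rcases hym with ⟨rfl, rfl⟩ | ⟨rfl, rfl⟩ | ⟨rfl, rfl⟩ | ⟨rfl, rfl⟩ <;>
      simp [one_val, two_val] at m1 f1 hne hiff
    all_goals first
      | exact absurd hiff (by decide)
      | exact m1 f1
      | exact m1 (sq_move _ _ f1)
      | exact m1 (cube _ _ ha3 f1)
      | exact m1 (cube _ _ hb3 f1)
  rcases x with ⟨x1, x2⟩
  rcases y with ⟨y1, y2⟩
  simp only [List.mem_cons, List.not_mem_nil, or_false, Prod.mk.injEq] at hxm hym
  have one_val : (1 : ZMod 3).val = 1 := rfl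
  have two_val : (2 : ZMod 3).val = 2 := rfl
  have hcc : sign (c₁ * c₂ * w) = -1 := by rw [map_mul, map_mul, hc₁.1, hc₂.1, hw.1]; decide
  rcases hxm with ⟨rfl, rfl⟩ | ⟨rfl, rfl⟩ | ⟨rfl, rfl⟩ | ⟨rfl, rfl⟩ <;>
    rcases hym with ⟨rfl, rfl⟩ | ⟨rfl, rfl⟩ | ⟨rfl, rfl⟩ | ⟨rfl, rfl⟩ <;>
    first
      | decide
      | exact absurd (by decide) hsame
      | skip
  · -- (1,0), (0,2)
    exact (hbad c₂ hc₂.1 (by rw [hx', hc₂.2.1]; simp [one_val]) (by rw [hy', hc₂.2.2]; simp [two_val])).elim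
  · -- (2,0), (0,1)
    exact (hbad c₁ hc₁.1 (by rw [hx', hc₁.2.1]; simp [two_val]) (by rw [hy', hc₁.2.2]; simp [one_val])).elim
  · -- (0,1), (1,0)
    exact (hbad w hw.1 (by rw [hx', hw.2.1]; simp [one_val]) (by rw [hy', hw.2.2]; simp [one_val])).elim
  · -- (0,2), (2,0)
    refine (hbad (c₁ * c₂ * w) hcc ?_ ?_).elim
    · have e : c₁ * b ^ 2 = b ^ 2 * c₁ := ((show Commute c₁ b from hc₁.2.2).pow_right 2).eq
      rw [hx', mul_assoc _ w, hw.2.1, ← mul_assoc, mul_assoc c₁, hc₂.2.2, ← mul_assoc c₁, e]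
      simp [two_val, mul_assoc]
    · rw [hy', mul_assoc _ w, hw.2.2, ← mul_assoc, mul_assoc c₁, hc₂.2.1, ← mul_assoc c₁, hc₁.2.1]
      simp [two_val, mul_assoc]

/-- The point `k < 6`. -/
def pt {n : ℕ} (h6 : 6 ≤ n) (k : Fin 6) : Fin n := Fin.castLE h6 k

/-- The three-cycle `(0 1 2)`. -/
def pA {n : ℕ} (h6 : 6 ≤ n) : Perm (Fin n) := swap (pt h6 0) (pt h6 1) * swap (pt h6 1) (pt h6 2)

/-- The three-cycle `(3 4 5)`. -/
def pB {n : ℕ} (h6 : 6 ≤ n) : Perm (Fin n) := swap (pt h6 3) (pt h6 4) * swap (pt h6 4) (pt h6 5)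

/-- The permutations of a Sylow `2`-subgroup. -/
def pD {n : ℕ} (h6 : 6 ≤ n) : DihedralGroup 4 → Perm (Fin n)
  | DihedralGroup.r i => (swap (pt h6 0) (pt h6 1) * swap (pt h6 1) (pt h6 2) * swap (pt h6 2) (pt h6 3) *
      swap (pt h6 4) (pt h6 5)) ^ i.val
  | DihedralGroup.sr i => swap (pt h6 0) (pt h6 2) * swap (pt h6 4) (pt h6 5) *
      (swap (pt h6 0) (pt h6 1) * swap (pt h6 1) (pt h6 2) * swap (pt h6 2) (pt h6 3) *
      swap (pt h6 4) (pt h6 5)) ^ i.val

theorem pD_spec {n : ℕ} (hn : n = 6 ∨ n = 7) (h6 : 6 ≤ n) :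
    (∀ x, sign (pD h6 x) = 1) ∧ (∀ x y, pD h6 (x * y) = pD h6 x * pD h6 y) ∧
      ∀ x, pD h6 x = 1 → x = 1 := by
  rcases hn with rfl | rfl <;> exact ⟨by decide +kernel +revert, by decide +kernel +revert, by decide +kernel +revert⟩

theorem pAB_spec {n : ℕ} (hn : n = 6 ∨ n = 7) (h6 : 6 ≤ n) :
    (sign (pA h6) = 1 ∧ sign (pB h6) = 1) ∧ (pA h6) ^ 3 = 1 ∧ (pB h6) ^ 3 = 1 ∧ pA h6 * pB h6 = pB h6 * pA h6 := by
  rcases hn with rfl | rfl <;> decide +kernel +revert

theorem pAB_indep {n : ℕ} (hn : n = 6 ∨ n = 7) (h6 : 6 ≤ n) :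
    ∀ t : ZMod 3 × ZMod 3, pA h6 ^ t.1.val * pB h6 ^ t.2.val = 1 → t = 0 := by
  rcases hn with rfl | rfl <;> decide +kernel +revert

theorem pAB_det {n : ℕ} (hn : n = 6 ∨ n = 7) (h6 : 6 ≤ n) {g : Perm (Fin n)} (hg : sign g = 1)
    {x y : ZMod 3 × ZMod 3} (hx : g * pA h6 = pA h6 ^ x.1.val * pB h6 ^ x.2.val * g)
    (hy : g * pB h6 = pA h6 ^ y.1.val * pB h6 ^ y.2.val * g) : det x y = 1 := by
  refine det_aux (pA h6) (pB h6) (pt h6 0) (pt h6 3) (swap (pt h6 1) (pt h6 2)) (swap (pt h6 4) (pt h6 5))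
    (swap (pt h6 0) (pt h6 3) * swap (pt h6 1) (pt h6 4) * swap (pt h6 2) (pt h6 5))
    ?_ ?_ ?_ ?_ ?_ ?_ ?_ ?_ (pAB_spec hn h6).2.2.2 ?_ ?_ ?_ (pAB_spec hn h6).1 hg hx hy
  all_goals clear hg hx hy g x y
  all_goals rcases hn with rfl | rfl <;> decide +kernel +revert

theorem stem_pullback {Q : Type} [Group Q] {X Y : Type} [Group X] [Group Y] [Finite X] [Finite Y]
    {f : X →* Q} {g : Y →* Q} (hf : Cfsg.IsStemExtension f) (hg : Cfsg.IsStemExtension g)
    {p q : ℕ} (hp : p.Prime) (hq : q.Prime) (hpq : p ≠ q) (hf' : Nat.card f.ker = p) (hg' : Nat.card g.ker = q) :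
    ∃ (Γ : Type) (_ : Group Γ) (_ : Finite Γ) (σ : Γ →* Q),
      Cfsg.IsStemExtension σ ∧ Nat.card σ.ker = p * q := by
  let R := pullback f g
  let φ : R →* Q := f.comp (pfst f g)
  obtain ⟨Γ, iG, iF, σ, hσ, ⟨e⟩⟩ :=
    exists_stem φ (hf.1.comp (pfst_surjective hg.1)) (base_ker_le_center hf.2.1 hg.2.1)
  refine ⟨Γ, iG, iF, σ, hσ, (Nat.card_congr e.toEquiv).trans ?_⟩
  set K := φ.ker ⊓ commutator R
  let j : K →* f.ker × g.ker :=
    MonoidHom.prod (((pfst f g).comp K.subtype).codRestrict f.ker fun z => z.2.1)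
      (((psnd f g).comp K.subtype).codRestrict g.ker fun z => (z.1.2 : f _ = g _).symm.trans z.2.1)
  have hj : Function.Injective j := fun a b h =>
    Subtype.ext (Subtype.ext (Prod.ext (congrArg (fun t => (t.1 : X)) h) (congrArg (fun t => (t.2 : Y)) h)))
  refine Nat.dvd_antisymm ?_ (Nat.Coprime.mul_dvd_of_dvd_of_dvd ((Nat.coprime_primes hp hq).2 hpq) ?_ ?_)
  · rw [← hf', ← hg', ← Nat.card_prod]
    exact Subgroup.card_dvd_of_injective j hj
  · rw [← hf']
    refine Subgroup.card_dvd_of_surjective ((MonoidHom.fst _ _).comp j) fun t => ?_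
    obtain ⟨z, hz, hz1⟩ := exists_mem_commutator_lift (pfst f g) (pfst_surjective hg.1) (hf.2.2 t.2)
    exact ⟨⟨z, (congrArg f hz1).trans t.2, hz⟩, Subtype.ext hz1⟩
  · rw [← hg']
    refine Subgroup.card_dvd_of_surjective ((MonoidHom.snd _ _).comp j) fun t => ?_
    obtain ⟨z, hz, hz1⟩ := exists_mem_commutator_lift (psnd f g) (psnd_surjective hf.1) (hg.2.2 t.2)
    exact ⟨⟨z, ((z.2 : f _ = g _).trans (congrArg g hz1)).trans t.2, hz⟩, Subtype.ext hz1⟩

theorem exists_double {n : ℕ} (hn : 4 ≤ n) :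
    ∃ (Γ : Type) (_ : Group Γ) (_ : Finite Γ) (σ : Γ →* alternatingGroup (Fin n)),
      Cfsg.IsStemExtension σ ∧ Nat.card σ.ker = 2 := by
  obtain ⟨Γ, iG, iF, z, hz, ho, hc, hN, ⟨e⟩⟩ := Cfsg.Agent.S0891.result n hn
  let σ := e.toMonoidHom.comp (QuotientGroup.mk' (Subgroup.zpowers z))
  have hk : σ.ker = Subgroup.zpowers z := by
    ext x
    simp [σ, MonoidHom.mem_ker]
  exact ⟨Γ, iG, iF, σ, ⟨e.surjective.comp (QuotientGroup.mk'_surjective _),
    hk ▸ Subgroup.zpowers_le.2 hz, hk ▸ Subgroup.zpowers_le.2 hc⟩, by rw [hk, Nat.card_zpowers, ho]⟩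

theorem triple {n : ℕ} (hn : n = 6 ∨ n = 7) :
    ∃ (P : Sylow 3 (alternatingGroup (Fin n))) (_ : (P : Subgroup (alternatingGroup (Fin n))) ≃* Multiplicative (ZMod 3 × ZMod 3))
      (Γ : Type) (_ : Group Γ) (_ : Finite Γ) (σ : Γ →* alternatingGroup (Fin n)),
      Cfsg.IsStemExtension σ ∧ Nat.card σ.ker = 3 := by
  haveI : Fact (Nat.Prime 3) := ⟨Nat.prime_three⟩
  haveI : NeZero n := ⟨by omega⟩
  have h6 : 6 ≤ n := by omega
  let A := pA h6
  let B := pB h6
  have hA := (pAB_spec hn h6).1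
  have hA3 := (pAB_spec hn h6).2
  let a : alternatingGroup (Fin n) := ⟨A, mem_alternatingGroup.2 hA.1⟩
  let b : alternatingGroup (Fin n) := ⟨B, mem_alternatingGroup.2 hA.2⟩
  have hcab : Commute a b := Subtype.ext hA3.2.2
  let φ : Multiplicative (ZMod 3 × ZMod 3) →* alternatingGroup (Fin n) :=
    MonoidHom.mk' (fun x => a ^ x.toAdd.1.val * b ^ x.toAdd.2.val) fun x y => by
      have e1 : ∀ i j : ZMod 3, a ^ (i + j).val = a ^ i.val * a ^ j.val := fun i j => by
        rw [← pow_add, ZMod.val_add]; exact (pow_eq_pow_mod _ (Subtype.ext hA3.1)).symm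
      have e2 : ∀ i j : ZMod 3, b ^ (i + j).val = b ^ i.val * b ^ j.val := fun i j => by
        rw [← pow_add, ZMod.val_add]; exact (pow_eq_pow_mod _ (Subtype.ext hA3.2.1)).symm
      rw [toAdd_mul, Prod.fst_add, Prod.snd_add, e1, e2, mul_assoc, ← mul_assoc (a ^ y.toAdd.1.val),
        (hcab.pow_pow _ _).eq, mul_assoc, ← mul_assoc, mul_assoc]
  have hφ : Function.Injective φ := by
    rw [← MonoidHom.ker_eq_bot_iff, Subgroup.eq_bot_iff_forall]
    intro x hx
    have hx' : A ^ x.toAdd.1.val * B ^ x.toAdd.2.val = 1 := congrArg Subtype.val (MonoidHom.mem_ker.1 hx)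
    refine Multiplicative.toAdd.injective ?_
    exact pAB_indep hn h6 _ hx'
  let e := MonoidHom.ofInjective hφ
  have hcard : Nat.card φ.range = 9 := by
    rw [← Nat.card_congr e.toEquiv, Nat.card_congr Multiplicative.toAdd, Nat.card_prod, Nat.card_zmod]
  let P : Sylow 3 (alternatingGroup (Fin n)) := Sylow.ofCard φ.range (by
    haveI : Nontrivial (Fin n) := Fin.nontrivial_iff_two_le.2 (by omega)
    rw [hcard]
    have hc := two_mul_nat_card_alternatingGroup (α := Fin n)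
    rw [Nat.card_perm, Nat.card_fin] at hc
    rcases hn with rfl | rfl
    · rw [show Nat.card (alternatingGroup (Fin 6)) = 3 ^ 2 * 40 by simp [Nat.factorial] at hc ⊢; omega,
        Nat.factorization_mul (by norm_num) (by norm_num), Finsupp.add_apply,
        Nat.prime_three.factorization_pow, Finsupp.single_eq_same,
        Nat.factorization_eq_zero_of_not_dvd (by norm_num)]
      norm_num
    · rw [show Nat.card (alternatingGroup (Fin 7)) = 3 ^ 2 * 280 by simp [Nat.factorial] at hc ⊢; omega,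
        Nat.factorization_mul (by norm_num) (by norm_num), Finsupp.add_apply,
        Nat.prime_three.factorization_pow, Finsupp.single_eq_same,
        Nat.factorization_eq_zero_of_not_dvd (by norm_num)]
      norm_num)
  let v : (P : Subgroup (alternatingGroup (Fin n))) ≃* Multiplicative (ZMod 3 × ZMod 3) := e.symm
  have hval : ∀ x : (P : Subgroup (alternatingGroup (Fin n))),
      ((x : alternatingGroup (Fin n)) : Perm (Fin n)) = A ^ (v x).toAdd.1.val * B ^ (v x).toAdd.2.val := fun x =>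
    congrArg Subtype.val (MonoidHom.apply_ofInjective_symm hφ x).symm
  refine ⟨P, v, exists_cover P v.toMonoidHom v.bijective (v.symm (Multiplicative.ofAdd (1, 0)))
    (v.symm (Multiplicative.ofAdd (0, 1))) (v.apply_symm_apply _) (v.apply_symm_apply _) fun g _ x y hx hy => ?_⟩
  have hx' := congrArg (fun t : alternatingGroup (Fin n) => (t : Perm (Fin n))) hx
  have hy' := congrArg (fun t : alternatingGroup (Fin n) => (t : Perm (Fin n))) hy
  simp only [Subgroup.coe_mul, Subgroup.coe_inv, hval, v.apply_symm_apply, toAdd_ofAdd, ZMod.val_zero, pow_zero,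
    mul_one, one_mul, show (1 : ZMod 3).val = 1 from rfl, pow_one] at hx' hy'
  exact pAB_det hn h6 (mem_alternatingGroup.1 g.2) (mul_inv_eq_iff_eq_mul.1 hx'.symm)
    (mul_inv_eq_iff_eq_mul.1 hy'.symm)

theorem dihedral_sylow {n : ℕ} (hn : n = 6 ∨ n = 7) :
    ∃ (P : Sylow 2 (alternatingGroup (Fin n))), Nonempty ((P : Subgroup (alternatingGroup (Fin n))) ≃* DihedralGroup 4) := by
  haveI : Fact (Nat.Prime 2) := ⟨Nat.prime_two⟩
  have h6 : 6 ≤ n := by omega
  let f := pD h6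
  have hf := pD_spec hn h6
  let φ : DihedralGroup 4 →* alternatingGroup (Fin n) :=
    MonoidHom.mk' (fun x => ⟨f x, mem_alternatingGroup.2 (hf.1 x)⟩) fun x y => Subtype.ext (hf.2.1 x y)
  have hφ : Function.Injective φ := by
    rw [← MonoidHom.ker_eq_bot_iff, Subgroup.eq_bot_iff_forall]
    exact fun x hx => hf.2.2 x (congrArg Subtype.val (MonoidHom.mem_ker.1 hx))
  let e := MonoidHom.ofInjective hφ
  refine ⟨Sylow.ofCard φ.range ?_, ⟨e.symm⟩⟩
  haveI : Nontrivial (Fin n) := Fin.nontrivial_iff_two_le.2 (by omega)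
  rw [← Nat.card_congr e.toEquiv, DihedralGroup.nat_card]
  have hc := two_mul_nat_card_alternatingGroup (α := Fin n)
  rw [Nat.card_perm, Nat.card_fin] at hc
  rcases hn with rfl | rfl
  · rw [show Nat.card (alternatingGroup (Fin 6)) = 2 ^ 3 * 45 by simp [Nat.factorial] at hc ⊢; omega,
      Nat.factorization_mul (by norm_num) (by norm_num), Finsupp.add_apply,
      Nat.prime_two.factorization_pow, Finsupp.single_eq_same,
      Nat.factorization_eq_zero_of_not_dvd (by norm_num)]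
    norm_num
  · rw [show Nat.card (alternatingGroup (Fin 7)) = 2 ^ 3 * 315 by simp [Nat.factorial] at hc ⊢; omega,
      Nat.factorization_mul (by norm_num) (by norm_num), Finsupp.add_apply,
      Nat.prime_two.factorization_pow, Finsupp.single_eq_same,
      Nat.factorization_eq_zero_of_not_dvd (by norm_num)]
    norm_num

theorem multiplier_alt {n : ℕ} (hn : n = 6 ∨ n = 7) :
    Cfsg.HasCyclicSchurMultiplier (alternatingGroup (Fin n)) 6 := by
  obtain ⟨X, _, _, f, hf, hf'⟩ := exists_double (n := n) (by omega)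
  obtain ⟨P3, v3, Y, _, _, g, hg, hg'⟩ := triple hn
  obtain ⟨Γ, _, _, σ, hσ, hcard⟩ := stem_pullback hf hg Nat.prime_two Nat.prime_three (by decide) hf' hg'
  refine hasCyclic_of (n := 6) ((Nat.squarefree_mul (m := 2) (n := 3) (by norm_num)).2 ⟨Nat.prime_two.squarefree, Nat.prime_three.squarefree⟩)
    hσ hcard fun Δ _ _ τ hτ => ?_
  refine (Nat.dvd_iff_prime_pow_dvd_dvd 6 (Nat.card τ.ker)).2 fun p k hp hk => ?_
  haveI := Fact.mk hp
  obtain ⟨Q⟩ : Nonempty (Sylow p (alternatingGroup (Fin n))) := inferInstance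
  rcases eq_or_ne p 3 with rfl | hp3
  · have h := pow_dvd_card hτ Q ((Sylow.equiv Q P3).trans v3) (Cfsg.Agent.S3951.result 3 3 dvd_rfl) hk
    rw [Nat.card_congr Multiplicative.toAdd, Nat.card_zmod] at h
    exact h.trans (by norm_num)
  rcases eq_or_ne p 2 with rfl | hp2
  · obtain ⟨P, ⟨e⟩⟩ := dihedral_sylow hn
    have h := pow_dvd_card hτ Q ((Sylow.equiv Q P).trans e) (Cfsg.Agent.S3965.result 4 (by decide)) hk
    rw [Nat.card_congr Multiplicative.toAdd, Nat.card_zmod] at h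
    exact h.trans (by norm_num)
  haveI : IsCyclic (Q : Subgroup (alternatingGroup (Fin n))) := by
    obtain ⟨j, hj⟩ := IsPGroup.iff_card.1 Q.isPGroup'
    have hd : p ^ j ∣ 2520 := hj ▸ (Subgroup.card_subgroup_dvd_card _).trans (by
      haveI : Nontrivial (Fin n) := Fin.nontrivial_iff_two_le.2 (by omega)
      have hc := two_mul_nat_card_alternatingGroup (α := Fin n)
      rw [Nat.card_perm, Nat.card_fin] at hc
      rcases hn with rfl | rfl
      · rw [show Nat.card (alternatingGroup (Fin 6)) = 360 by simp [Nat.factorial] at hc ⊢; omega]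
        norm_num
      · rw [show Nat.card (alternatingGroup (Fin 7)) = 2520 by simp [Nat.factorial] at hc ⊢; omega])
    have hcop : Nat.Coprime (p ^ j) 72 := Nat.Coprime.pow_left j ((hp.coprime_iff_not_dvd).2 fun h => by
      rcases hp.dvd_mul.1 (show p ∣ 2 ^ 3 * 3 ^ 2 from h) with h2 | h2
      all_goals first
        | exact hp2 ((Nat.prime_dvd_prime_iff_eq hp Nat.prime_two).1 (hp.dvd_of_dvd_pow h2))
        | exact hp3 ((Nat.prime_dvd_prime_iff_eq hp Nat.prime_three).1 (hp.dvd_of_dvd_pow h2)))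
    have hd35 : p ^ j ∣ 35 := hcop.dvd_of_dvd_mul_left (show p ^ j ∣ 72 * 35 from hd)
    rcases Nat.lt_or_ge j 2 with h | h
    · interval_cases j
      · haveI : Subsingleton (Q : Subgroup (alternatingGroup (Fin n))) :=
          (Nat.card_eq_one_iff_unique.1 (hj.trans (pow_zero p))).1
        infer_instance
      · exact isCyclic_of_prime_card (hj.trans (pow_one p))
    · exfalso
      have h2 : p * p ∣ 35 := (pow_two p) ▸ (pow_dvd_pow p h).trans hd35
      have h3 := Nat.le_of_dvd (by norm_num) h2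
      have h4 : p ≤ 5 := by nlinarith
      have := hp.two_le
      interval_cases p <;> first | omega | norm_num at h2
  have h := pow_dvd_card hτ Q (MulEquiv.refl _)
    (Cfsg.Agent.S3979.result (G := (Q : Subgroup (alternatingGroup (Fin n))))) hk
  rw [Nat.card_congr Multiplicative.toAdd, Nat.card_zmod] at h
  exact h.trans (one_dvd _)

end CfsgLib.SchurSylow
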