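import Cfsg.Agent.SchurSylow.Cover
import Cfsg.Agent.SchurSylow.Bound
import Cfsg.Agent.S3951
import Cfsg.Agent.S3963
import Cfsg.Agent.S3979
import Cfsg.Agent.S0261
import Cfsg.Agent.S0262
import Cfsg.Agent.SL2.Basic
import Cfsg.Agent.SL2.Elements

/-!
# The multiplier of `SL₂(9)`
-/

namespace CfsgLib.SchurSylow

open CfsgLib.SL2
open scoped MatrixGroups

theorem sq_eq_one_of_ne_zero : ∀ x : ZMod 3, x ≠ 0 → x * x = 1 := by decide

variable {F : Type*} [Field F] [Fintype F]

theorem exists_sylow_three (hF : Fintype.card F = 9) [CharP F 3] [Fact (Nat.Prime 3)] :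
    ∃ (P : Sylow 3 SL(2, F)) (v : (P : Subgroup SL(2, F)) →* Multiplicative (ZMod 3 × ZMod 3))
      (a b : (P : Subgroup SL(2, F))), Function.Bijective v ∧
      v a = Multiplicative.ofAdd (1, 0) ∧ v b = Multiplicative.ofAdd (0, 1) ∧
      ∀ g ∈ Subgroup.normalizer ((P : Subgroup SL(2, F)) : Set SL(2, F)), ∀ x y : (P : Subgroup SL(2, F)),
        (x : SL(2, F)) = g * a * g⁻¹ → (y : SL(2, F)) = g * b * g⁻¹ →
          det (v x).toAdd (v y).toAdd = 1 := by
  letI : Algebra (ZMod 3) F := ZMod.algebra F 3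
  have hrank : Module.finrank (ZMod 3) F = 2 := by
    have h := Module.card_eq_pow_finrank (K := ZMod 3) (V := F)
    rw [hF, ZMod.card] at h
    exact Nat.pow_right_injective (show 2 ≤ 3 by norm_num) (h.symm.trans (by norm_num : (9 : ℕ) = 3 ^ 2))
  let bs := Module.finBasisOfFinrankEq (ZMod 3) F hrank
  let ψ : F ≃ₗ[ZMod 3] ZMod 3 × ZMod 3 := bs.equivFun.trans (LinearEquiv.finTwoArrow (ZMod 3) (ZMod 3))
  set t₁ := ψ.symm (1, 0) with ht₁
  set t₂ := ψ.symm (0, 1) with ht₂
  let δ : F → ZMod 3 := fun d => det (ψ (d * t₁)) (ψ (d * t₂))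
  have hδ : ∀ d x y : F, det (ψ (d * x)) (ψ (d * y)) = δ d * det (ψ x) (ψ y) := by
    intro d x y
    have hx : ∀ z : F, ψ (d * z) = (ψ z).1 • ψ (d * t₁) + (ψ z).2 • ψ (d * t₂) := fun z => by
      rw [← map_smul, ← map_smul, ← map_add, ← mul_smul_comm, ← mul_smul_comm, ← mul_add, ht₁, ht₂,
        ← map_smul, ← map_smul, ← map_add]
      congr 2
      rw [LinearEquiv.eq_symm_apply]
      ext <;> simp
    simp only [δ, det, hx x, hx y, Prod.fst_add, Prod.snd_add, Prod.smul_fst, Prod.smul_snd, smul_eq_mul]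
    ring
  have hδsq : ∀ d : F, d ≠ 0 → det (ψ (d ^ 2 * t₁)) (ψ (d ^ 2 * t₂)) = 1 := by
    intro d hd
    have h1 : δ d * δ d⁻¹ = 1 := by
      have := hδ d (d⁻¹ * t₁) (d⁻¹ * t₂)
      rw [mul_inv_cancel_left₀ hd, mul_inv_cancel_left₀ hd, ht₁, ht₂, LinearEquiv.apply_symm_apply,
        LinearEquiv.apply_symm_apply] at this
      simpa [det, δ, ht₁, ht₂] using this.symm
    rw [pow_two, mul_assoc, mul_assoc, hδ]
    exact sq_eq_one_of_ne_zero _ fun h => by rw [h, zero_mul] at h1; exact zero_ne_one h1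
  have hinj : Function.Injective (upperHom (F := F)) := fun s t h => by
    have := congrArg (fun A : SL(2, F) => (A : Matrix (Fin 2) (Fin 2) F) 0 1) h
    simpa [upperHom, upperU] using this
  have hcard : Nat.card (upperHom (F := F)).range = 9 := by
    rw [← Nat.card_congr (MonoidHom.ofInjective hinj).toEquiv, Nat.card_congr Multiplicative.toAdd,
      Nat.card_eq_fintype_card, hF]
  let P : Sylow 3 SL(2, F) := Sylow.ofCard (upperHom (F := F)).range (by
    rw [hcard, card_SL2, hF, show 9 * (9 ^ 2 - 1) = 3 ^ 2 * 80 by norm_num,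
      Nat.factorization_mul (by norm_num) (by norm_num), Finsupp.add_apply,
      (Fact.out : Nat.Prime 3).factorization_pow, Finsupp.single_eq_same,
      Nat.factorization_eq_zero_of_not_dvd (by norm_num)]
    norm_num)
  let eP : (P : Subgroup SL(2, F)) ≃* Multiplicative F := (MonoidHom.ofInjective hinj).symm
  let v : (P : Subgroup SL(2, F)) ≃* Multiplicative (ZMod 3 × ZMod 3) :=
    eP.trans (AddEquiv.toMultiplicative ψ.toAddEquiv)
  have hval : ∀ x : (P : Subgroup SL(2, F)), (x : SL(2, F)) = upperU (ψ.symm (v x).toAdd) := fun x => by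
    have h1 : ψ.symm (v x).toAdd = (eP x).toAdd := ψ.symm_apply_apply _
    rw [h1]
    exact (MonoidHom.apply_ofInjective_symm hinj x).symm
  refine ⟨P, v.toMonoidHom, v.symm (Multiplicative.ofAdd (1, 0)), v.symm (Multiplicative.ofAdd (0, 1)),
    v.bijective, v.apply_symm_apply _, v.apply_symm_apply _, fun g _ x y hx hy => ?_⟩
  rw [hval x, hval (v.symm _), v.apply_symm_apply, toAdd_ofAdd] at hx
  rw [hval y, hval (v.symm _), v.apply_symm_apply, toAdd_ofAdd] at hy
  have key : ∀ s t : F, t ≠ 0 → upperU s = g * upperU t * g⁻¹ →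
      (g : Matrix (Fin 2) (Fin 2) F) 0 0 ≠ 0 ∧ s = (g : Matrix (Fin 2) (Fin 2) F) 0 0 ^ 2 * t := by
    intro s t ht h
    rw [eq_mul_inv_iff_mul_eq] at h
    have h00 := congrArg (fun A : SL(2, F) => (A : Matrix (Fin 2) (Fin 2) F) 1 1) h
    have h01 := congrArg (fun A : SL(2, F) => (A : Matrix (Fin 2) (Fin 2) F) 0 1) h
    simp [upperU, mul01, mul11] at h00 h01
    have hd : (g : Matrix (Fin 2) (Fin 2) F).det = 1 := g.2
    rw [Matrix.det_fin_two] at hd
    have hg10 : (g : Matrix (Fin 2) (Fin 2) F) 1 0 = 0 := h00.resolve_right ht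
    rw [hg10, mul_zero, sub_zero] at hd
    refine ⟨fun h0 => by rw [h0, zero_mul] at hd; exact zero_ne_one hd, ?_⟩
    linear_combination (g : Matrix (Fin 2) (Fin 2) F) 0 0 * h01 - s * hd
  have ht : ∀ w : ZMod 3 × ZMod 3, w ≠ 0 → ψ.symm w ≠ 0 := fun w hw h => hw (by
    rw [← ψ.apply_symm_apply w, h, map_zero])
  obtain ⟨hg0, hx'⟩ := key _ _ (ht _ (by simp)) hx
  obtain ⟨-, hy'⟩ := key _ _ (ht _ (by simp)) hy
  have h := hδsq _ hg0
  rw [← hx', ← hy', LinearEquiv.apply_symm_apply, LinearEquiv.apply_symm_apply] at h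
  exact h

/-- The multiplier of `SL₂(9)` is cyclic of order three. -/
theorem multiplier_sl_two_nine (hF : Fintype.card F = 9) : Cfsg.HasCyclicSchurMultiplier SL(2, F) 3 := by
  classical
  haveI : CharP F 3 := by
    haveI := ringChar.charP F
    have hp : (ringChar F).Prime := CharP.char_is_prime F _
    obtain ⟨n, -, hn⟩ := FiniteField.card F (ringChar F)
    have h : ringChar F = 3 := by
      have h9 : ringChar F ∣ 3 ^ 2 := by
        rw [show (3 ^ 2 : ℕ) = ringChar F ^ (n : ℕ) by rw [← hn, hF]; norm_num]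
        exact dvd_pow_self _ n.2.ne'
      exact (Nat.prime_dvd_prime_iff_eq hp Nat.prime_three).1 (hp.dvd_of_dvd_pow h9)
    rw [← h]; infer_instance
  haveI : Fact (Nat.Prime 3) := ⟨Nat.prime_three⟩
  obtain ⟨P, v, a, b, hv, ha, hb, hdet⟩ := exists_sylow_three hF
  obtain ⟨Γ, _, _, σ, hσ, hcard⟩ := exists_cover P v hv a b ha hb hdet
  refine hasCyclic_of (n := 3) Nat.prime_three.squarefree hσ hcard fun Δ _ _ τ hτ => ?_
  refine (Nat.dvd_iff_prime_pow_dvd_dvd 3 (Nat.card τ.ker)).2 fun p k hp hk => ?_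
  haveI := Fact.mk hp
  obtain ⟨Q⟩ : Nonempty (Sylow p SL(2, F)) := inferInstance
  rcases eq_or_ne p 3 with rfl | hp3
  · let e : (Q : Subgroup SL(2, F)) ≃* Multiplicative (ZMod 3 × ZMod 3) :=
      (Sylow.equiv Q P).trans (MulEquiv.ofBijective v hv)
    have h := pow_dvd_card hτ Q e (Cfsg.Agent.S3951.result 3 3 dvd_rfl) hk
    rwa [Nat.card_congr Multiplicative.toAdd, Nat.card_zmod] at h
  · have h1 : p ^ k ∣ 1 := by
      rcases eq_or_ne p 2 with rfl | hp2
      · obtain ⟨j, -, ⟨e⟩⟩ := Cfsg.Agent.S0261.result (by rw [hF]; decide) Q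
        haveI : NeZero (2 ^ j) := ⟨by positivity⟩
        have h := pow_dvd_card hτ Q e (Cfsg.Agent.S3963.result (2 ^ j)) hk
        rwa [Nat.card_congr Multiplicative.toAdd, Nat.card_zmod] at h
      · haveI := Cfsg.Agent.S0262.result 3 p hp2 hp3 Q
        have h := pow_dvd_card hτ Q (MulEquiv.refl _)
          (Cfsg.Agent.S3979.result (G := (Q : Subgroup SL(2, F)))) hk
        rwa [Nat.card_congr Multiplicative.toAdd, Nat.card_zmod] at h
    exact h1.trans (one_dvd _)

end CfsgLib.SchurSylow
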